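import Cfsg.Agent.Sg11.KFld

/-!
# From the character theory to the geometric inequalities (`n ∣ q - 1`)

Notation: `h = |orb sS (F∙1)|`, `n h = Φ = geo q n ≥ q^(n-1)`, `q > n ≥ 11`, so `h > q^9`.
-/

set_option autoImplicit false
set_option linter.unusedSectionVars false
set_option linter.style.haveILetI false

namespace Cfsg.Agent.Sing.E11

open MulAction Pointwise Cfsg.Agent.Proj.CK

theorem g1_count {α : Type*} [Finite α] {W B : Set α} {r : α → Set α} {h : ℕ}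
    (h1 : ∀ b ∈ B, r b ⊆ W ∧ (r b).ncard = h) (h2 : ∀ w ∈ W, ∃! b, b ∈ B ∧ w ∈ r b) :
    W.ncard = h * B.ncard := by
  classical
  have := Fintype.ofFinite α
  have := Finset.card_mul_eq_card_mul (s := W.toFinset) (t := B.toFinset) (fun w b => w ∈ r b)
    (m := 1) (n := h) (fun w hw => by
      obtain ⟨b, hb, e⟩ := h2 w (Set.mem_toFinset.1 hw)
      exact Finset.card_eq_one.2 ⟨b, Finset.ext fun c => by
        simpa using ⟨fun h => e c h, fun h => h ▸ hb⟩⟩) fun b hb => by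
      obtain ⟨a1, a2⟩ := h1 b (Set.mem_toFinset.1 hb)
      rw [← a2, Set.ncard_eq_toFinset_card']
      congr 1
      ext w
      simpa using fun h => a1 h
  rw [Set.ncard_eq_toFinset_card', Set.ncard_eq_toFinset_card']
  linarith

theorem g1_wdc {α : Type*} [Finite α] {X B : Set α} {r : α → α → Prop} {m : α → ℕ} {μ : ℕ}
    (h1 : ∀ x ∈ X, 0 < m x ∧ m x ≤ μ * {b | b ∈ B ∧ r x b}.ncard)
    (h2 : ∀ b ∈ B, ∀ x ∈ X, r x b → {x | x ∈ X ∧ r x b}.ncard ≤ m x) : X.ncard ≤ B.ncard * μ := by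
  classical
  have := Fintype.ofFinite α
  have e1 : ∀ x, {b | b ∈ B ∧ r x b}.ncard = (B.toFinset.filter (r x)).card := fun x => by
    rw [Set.ncard_eq_toFinset_card']; congr 1; ext; simp
  have e2 : ∀ b, {x | x ∈ X ∧ r x b}.ncard = (X.toFinset.filter (r · b)).card := fun x => by
    rw [Set.ncard_eq_toFinset_card']; congr 1; ext; simp
  simp only [e1, e2] at h1 h2
  rw [Set.ncard_eq_toFinset_card', Set.ncard_eq_toFinset_card', ← Nat.cast_le (α := ℚ)]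
  calc (X.toFinset.card : ℚ) = ∑ _x ∈ X.toFinset, 1 := by simp
    _ ≤ ∑ x ∈ X.toFinset, ∑ b ∈ B.toFinset with r x b, (μ : ℚ) / m x := Finset.sum_le_sum fun x hx => by
      obtain ⟨a1, a2⟩ := h1 x (Set.mem_toFinset.1 hx)
      rw [Finset.sum_const, nsmul_eq_mul, ← mul_div_assoc, le_div_iff₀ (by exact_mod_cast a1), one_mul,
        mul_comm]
      exact_mod_cast a2
    _ = ∑ b ∈ B.toFinset, ∑ x ∈ X.toFinset with r x b, (μ : ℚ) / m x := by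
      simp only [Finset.sum_filter]; exact Finset.sum_comm
    _ ≤ ∑ _b ∈ B.toFinset, (μ : ℚ) := Finset.sum_le_sum fun b hb => by
      refine (Finset.sum_le_card_nsmul _ _ ((μ : ℚ) / (X.toFinset.filter (r · b)).card)
        fun x hx => div_le_div_of_nonneg_left (by positivity)
          (by exact_mod_cast Finset.card_pos.2 ⟨x, hx⟩) ?_).trans ?_
      · rw [Finset.mem_filter, Set.mem_toFinset] at hx
        exact_mod_cast h2 b (Set.mem_toFinset.1 hb) x hx.1 hx.2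
      · rw [nsmul_eq_mul]
        rcases Nat.eq_zero_or_pos (X.toFinset.filter (r · b)).card with e | e
        · simp [e]
        · rw [mul_div_cancel₀ _ (by exact_mod_cast e.ne')]
    _ = _ := by simp

theorem g1_geo (q k : ℕ) : q ^ k ≤ geo q (k + 1) :=
  Finset.single_le_sum (f := fun i => q ^ i) (fun _ _ => Nat.zero_le _) (Finset.self_mem_range_succ k)

theorem g1_half {N κ h n q : ℕ} (h1 : h ≤ N) (h2 : ((N : ℤ) - κ) ^ 2 ≤ 2 * n ^ 3 * κ) (h3 : n < q)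
    (h4 : q ^ 9 ≤ h) (h5 : 11 ≤ n) : h ≤ 2 * κ := by
  by_contra! c
  have a : 4 * n ^ 3 ≤ h := calc
    4 * n ^ 3 ≤ q ^ 6 * q ^ 3 := Nat.mul_le_mul
      (le_trans (by norm_num) (Nat.pow_le_pow_left (show 2 ≤ q by omega) 6)) (Nat.pow_le_pow_left h3.le 3)
    _ ≤ h := by rwa [← pow_add]
  zify at h1 c a
  have : (0 : ℤ) ≤ κ := by positivity
  nlinarith [mul_self_le_mul_self (show (0 : ℤ) ≤ h - κ by omega) (show (h : ℤ) - κ ≤ N - κ by omega)]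

theorem g1_eq {a b a' b' h ρ n q : ℕ} (h1 : ((h * b : ℕ) - (ρ * a : ℕ) : ℤ) ^ 2 ≤ 2 * n ^ 3 * (ρ * a : ℕ))
    (h2 : ((h * b' : ℕ) - (ρ * a' : ℕ) : ℤ) ^ 2 ≤ 2 * n ^ 3 * (ρ * a' : ℕ)) (k : ρ * a ≤ n * h)
    (k' : ρ * a' ≤ n * h) (m : a ≤ q ^ 2) (m' : a' ≤ q ^ 2) (h3 : n < q) (h4 : q ^ 9 ≤ h) (h5 : 11 ≤ n) :
    a' * b = a * b' := by
  have c : 8 * ((q ^ 2) ^ 2 * n ^ 4) < h := calc
    8 * ((q ^ 2) ^ 2 * n ^ 4) < q * ((q ^ 2) ^ 2 * q ^ 4) := Nat.mul_lt_mul_of_lt_of_le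
      (by omega)
      (Nat.mul_le_mul_left _ (Nat.pow_le_pow_left h3.le 4)) (by have : 0 < q := by omega
                                                                positivity)
    _ = q ^ 9 := by ring
    _ ≤ h := h4
  push_cast at h1 h2
  zify at c k k' m m' ⊢
  generalize (q : ℤ) ^ 2 = Q at *
  set e := (h : ℤ) * b - ρ * a with he
  set e' := (h : ℤ) * b' - ρ * a' with he'
  have n3 : (0 : ℤ) ≤ 2 * n ^ 3 := by positivity
  have b1 : e ^ 2 ≤ 2 * n ^ 3 * (n * h) := h1.trans (mul_le_mul_of_nonneg_left k n3)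
  have b2 : e' ^ 2 ≤ 2 * n ^ 3 * (n * h) := h2.trans (mul_le_mul_of_nonneg_left k' n3)
  have b3 : (a' * e) ^ 2 ≤ Q ^ 2 * (2 * n ^ 3 * (n * h)) := by
    rw [mul_pow]; exact mul_le_mul (pow_le_pow_left₀ (by positivity) m' 2) b1 (by positivity) (by positivity)
  have b4 : (a * e') ^ 2 ≤ Q ^ 2 * (2 * n ^ 3 * (n * h)) := by
    rw [mul_pow]; exact mul_le_mul (pow_le_pow_left₀ (by positivity) m 2) b2 (by positivity) (by positivity)
  have h0 : (0 : ℤ) < h := lt_of_le_of_lt (by positivity) c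
  by_contra ne
  have d : 1 ≤ ((a' : ℤ) * b - a * b') ^ 2 := by
    have := sq_pos_of_ne_zero (sub_ne_zero.2 ne); omega
  have e3 : h * ((a' : ℤ) * b - a * b') = a' * e - a * e' := by rw [he, he']; ring
  have : (h : ℤ) ^ 2 ≤ (a' * e - a * e') ^ 2 := by
    rw [← e3, mul_pow]; exact le_mul_of_one_le_right (by positivity) d
  nlinarith [sq_nonneg (a' * e + a * e'), mul_lt_mul_of_pos_left c h0]

variable {F K G : Type*} [Field F] [Field K] [Algebra F K] [Finite F] [Finite K] [Group G]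
  [Finite G] [DistribMulAction G K] [SMulCommClass G F K] {σ : G} {n : ℕ}

theorem g1_comm {s t : G} (hs : s ∈ sS K G) (ht : t ∈ sS K G) (x : K) :
    s • t • (F ∙ x) = t • s • (F ∙ x) := by
  obtain ⟨k, hk⟩ := hs
  obtain ⟨l, hl⟩ := ht
  simp only [smul_pt, hk, hl, mul_left_comm]

theorem g1_line {y z : K} (hy : y ≠ 0) (hz : z ∉ (F ∙ y)) {A : Subgroup G}
    (hA : A ≤ stabilizer G (pl F y z)) {x : K} (hx : x ∈ pl F y z) :
    (orb A (F ∙ x)).ncard ≤ Nat.card F ^ 2 := by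
  rw [← card_pl hy hz, ← ncard_coe]
  refine (Set.ncard_le_ncard ?_).trans (Set.ncard_image_le (f := fun v : K => F ∙ v))
  rintro _ ⟨g, hg, rfl⟩
  exact ⟨g • x, stab_mem (hA hg) hx, (smul_pt g x).symm⟩

theorem g1_one {t : G} {u v : Submodule F K} (e : t • u = v) : 0 < Nn t u v :=
  (Set.ncard_pos (Set.toFinite _)).2 ⟨u, 1, one_smul _ _, by rw [one_smul, e]⟩

namespace Sg

variable (D : Sg F K σ n) (hd : n ∣ Nat.card F - 1) (C : CI (sZ F K G) (sS K G) (pts F K) n)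
include D hd

theorem g1_q : n < Nat.card F := by
  have := two_le_q (F := F)
  have := Nat.le_of_dvd (by omega) hd
  omega

theorem g1_cl {x : K} (hx : x ≠ 0) :
    (orb (sS K G) (F ∙ x)).ncard = (orb (sS K G) (F ∙ (1 : K))).ncard :=
  Nat.eq_of_mul_eq_mul_left D.prime.pos
    ((D.mul_ncard_class hd hx).trans (D.mul_ncard_class hd one_ne_zero).symm)

theorem g1_h : Nat.card F ^ 9 ≤ (orb (sS K G) (F ∙ (1 : K))).ncard := by
  have h1 := D.g1_q hd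
  obtain ⟨k, rfl⟩ := Nat.exists_eq_add_of_le' D.h13
  refine Nat.le_of_mul_le_mul_left ?_ D.prime.pos
  rw [D.mul_ncard_class hd one_ne_zero]
  refine le_trans ?_ (g1_geo _ (k + 10))
  calc _ ≤ Nat.card F * Nat.card F ^ 9 := Nat.mul_le_mul_right _ h1.le
    _ = Nat.card F ^ 10 := by ring
    _ ≤ _ := Nat.pow_le_pow_right (by omega) (by omega)

theorem g1_orb (A : Subgroup G) {x : K} (hx : x ≠ 0) :
    (orb A (F ∙ x)).ncard ≤ n * (orb (sS K G) (F ∙ (1 : K))).ncard := by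
  rw [D.mul_ncard_class hd one_ne_zero, ← D.rank, ← ncard_pts]
  exact Set.ncard_le_ncard ((inv_pts A).orb_subset (pt_mem_pts hx))

theorem g1_s : ∃ s ∈ sS K G, s ∉ sZ F K G := by
  have h1 := D.g1_h hd
  have h2 := Nat.one_lt_pow (n := 9) (by omega) (show 1 < Nat.card F from two_le_q)
  obtain ⟨_, ⟨s, hs, rfl⟩, e⟩ := Set.exists_ne_of_one_lt_ncard (h2.trans_le h1) (F ∙ (1 : K))
  exact ⟨s, hs, fun c => e (D.Z_triv s c _ (pt_mem_pts one_ne_zero))⟩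

theorem Nn_eq {s : G} (hs : s ∈ sS K G) {y z : K} (hy : y ≠ 0) :
    Nn s (F ∙ y) (F ∙ z) = (orb (sS K G) (F ∙ (1 : K))).ncard *
      {p | σ • p = p ∧ ∃ g : G, g • (F ∙ y) = p ∧ g • (F ∙ z) = s • p}.ncard := by
  have iv : Inv (sS K G) {w | ∃ g : G, g • (F ∙ y) = w ∧ g • (F ∙ z) = s • w} := by
    rintro t ht _ ⟨g, rfl, e⟩
    exact ⟨t * g, mul_smul _ _ _, by rw [mul_smul, e, smul_pt, g1_comm ht hs]⟩
  refine g1_count (r := orb (sS K G)) (fun b hb => ⟨iv.orb_subset hb.2, ?_⟩) ?_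
  · obtain ⟨-, g, rfl, -⟩ := hb
    rw [smul_pt, D.g1_cl hd (smul_ne0 hy)]
  · rintro _ ⟨g, rfl, e⟩
    obtain ⟨p, ⟨h1, h2⟩, h3⟩ := D.exists_unique_fr hd (smul_ne0 (g := g) hy)
    rw [← smul_pt] at h1 h3
    exact ⟨p, ⟨⟨h2, iv.orb_subset ⟨g, rfl, e⟩ h1⟩, orb_symm h1⟩, fun b hb => h3 b ⟨orb_symm hb.2, hb.1.1⟩⟩

theorem g1_le {s : G} (hs : s ∈ sS K G) {y z : K} (hy : y ≠ 0) (h : 0 < Nn s (F ∙ y) (F ∙ z)) :
    (orb (sS K G) (F ∙ (1 : K))).ncard ≤ Nn s (F ∙ y) (F ∙ z) := by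
  rw [D.Nn_eq hd hs hy] at h ⊢
  exact Nat.le_mul_of_pos_right _ (Nat.pos_of_mul_pos_left h)

theorem g1_two {y z : K} (hy : y ≠ 0) (hz : z ∉ (F ∙ y)) : ∃ (u v : K) (t : G), u ≠ 0 ∧ v ∉ (F ∙ u) ∧
    pl F u v = pl F y z ∧ t ∈ sS K G ∧ t ∉ sZ F K G ∧ t • (F ∙ u) = F ∙ v := by
  have n0 : ∀ c : F, c • y + z ≠ 0 := fun c e =>
    hz (mem_pt.2 ⟨-c, by rw [neg_smul, neg_eq_iff_add_eq_zero, e]⟩)
  choose f hf using fun c => (D.exists_unique_fr hd (n0 c)).exists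
  obtain ⟨c, -, d, -, e1, e2⟩ := Set.exists_ne_map_eq_of_ncard_lt_of_maps_to (s := Set.univ)
    (t := {p | p ∈ pts F K ∧ σ • p = p}) (f := f)
    (by rw [D.ncard_fr hd, Set.ncard_univ]; exact D.g1_q hd)
    fun c _ => ⟨(inv_pts _).orb_subset (pt_mem_pts (n0 c)) (hf c).1, (hf c).2⟩
  obtain ⟨t, ht, e⟩ := orb_trans (hf c).1 (orb_symm (e2 ▸ (hf d).1))
  have k : d • y + z ∉ (F ∙ (c • y + z)) := fun k => by
    obtain ⟨a, ha⟩ := mem_pt.1 k
    by_cases a1 : a = 1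
    · rw [a1, one_smul, add_left_inj] at ha
      exact e1 (smul_left_injective F hy ha)
    · refine hz (mem_pt.2 ⟨(a - 1)⁻¹ * (d - a * c), ?_⟩)
      rw [mul_smul, inv_smul_eq_iff₀ (sub_ne_zero.2 a1)]
      linear_combination (norm := module) -ha
  refine ⟨_, _, t, n0 c, k, pl_eq_of_mem (mem_pl.2 ⟨c, 1, by simp⟩) (mem_pl.2 ⟨d, 1, by simp⟩) (n0 c) k,
    ht, fun hc => k ?_, e⟩
  rw [← D.Z_triv t hc _ (pt_mem_pts (n0 c)), e]
  exact self_mem_pt _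

include C

theorem Nn_pos {s : G} (hs : s ∈ sS K G) (hs' : s ∉ sZ F K G) {y z : K} (hy : y ≠ 0)
    (hz : z ∉ (F ∙ y)) (h : (F ∙ z) ∈ Om F G y) : 0 < Nn s (F ∙ y) (F ∙ z) := by
  obtain ⟨u, v, t, u0, hv, e, ht, ht', tu⟩ := D.g1_two hd hy hz
  have hq := D.g1_q hd
  have hh := D.g1_h hd
  have h13 := D.h13
  have a1 := g1_half (D.g1_le hd ht u0 (g1_one tu)) (C.c2 t ht ht' _ (pt_mem_pts u0) _ ⟨t, trivial, tu⟩)
    hq hh h13
  have a2 := (D.g1_cl hd u0).ge.trans (Set.ncard_le_ncard (orb_mono (le_top (a := sS K G)) (F ∙ u)))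
  have a3 := D.g1_orb hd ⊤ hy
  have b : ∀ y z : K, (orb (⊤ : Subgroup G) (F ∙ y)).ncard * ((orb (ps F G y) (F ∙ z)).ncard *
      Nat.card ↥(ps F G y ⊓ ps F G z)) = Nat.card (⊤ : Subgroup G) := fun y z => by
    rw [ncard_orb_mul, ← ncard_orb_mul ⊤ (F ∙ y), top_inf_eq]
  have b1 := (b u v).trans (b y z).symm
  have b2 := Subgroup.card_le_of_le (ps_inf_le_pl (F := F) (G := G) y z)
  have b3 : Nat.card (stabilizer G (pl F y z)) ≤
      Nat.card F ^ 2 * (Nat.card F ^ 2 * Nat.card ↥(ps F G u ⊓ ps F G v)) := by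
    rw [← ncard_orb_mul _ (F ∙ u), ← ncard_orb_mul _ (F ∙ v)]
    exact Nat.mul_le_mul (g1_line hy hz le_rfl (e ▸ left_mem_pl u v)) (Nat.mul_le_mul
      (g1_line hy hz inf_le_left (e ▸ right_mem_pl u v))
      (Subgroup.card_le_of_le (inf_le_inf_right _ inf_le_right)))
  refine Nat.pos_of_ne_zero fun c => ?_
  have c2 := C.c2 s hs hs' _ (pt_mem_pts hy) _ h
  rw [c] at c2
  have k0 := ncard_orb_pos (ps F G y) (F ∙ z)
  have m0 : 0 < Nat.card ↥(ps F G u ⊓ ps F G v) := Nat.card_pos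
  unfold ps at *
  generalize (orb (stabilizer G (F ∙ y)) (F ∙ z)).ncard = κ at *
  generalize (orb (stabilizer G (F ∙ u)) (F ∙ v)).ncard = κ' at *
  generalize (orb (sS K G) (F ∙ (1 : K))).ncard = h at *
  generalize Nat.card ↥(stabilizer G (F ∙ u) ⊓ stabilizer G (F ∙ v)) = m at *
  generalize Nat.card F = q at *
  have c3 : κ ≤ 2 * q ^ 3 := by
    have : κ ≤ 2 * n ^ 3 := by zify at k0 ⊢; push_cast at c2; nlinarith
    exact this.trans (Nat.mul_le_mul_left _ (Nat.pow_le_pow_left hq.le 3))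
  have c4 : h * (h * m) ≤ 4 * q ^ 8 * (h * m) := calc
    h * (h * m) ≤ _ * (2 * κ' * m) := Nat.mul_le_mul a2 (Nat.mul_le_mul_right _ a1)
    _ = 2 * (_ * (κ' * m)) := by ring
    _ ≤ 2 * (q * h * (2 * q ^ 3 * (q ^ 2 * (q ^ 2 * m)))) := by
      rw [b1]
      exact Nat.mul_le_mul_left _ (Nat.mul_le_mul (a3.trans (Nat.mul_le_mul_right _ hq.le))
        (Nat.mul_le_mul c3 (b2.trans b3)))
    _ = _ := by ring
  have q0 : 0 < q ^ 8 := by have : 0 < q := by omega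
                            positivity
  have c5 := hh.trans (Nat.le_of_mul_le_mul_right c4 (Nat.mul_pos (by
    have := Nat.one_le_pow 9 q (by omega); omega) m0))
  rw [show q ^ 9 = q * q ^ 8 by ring, Nat.mul_le_mul_right_iff q0] at c5
  omega

theorem g1_rs {s : G} (hs : s ∈ sS K G) (hs' : s ∉ sZ F K G) {y z : K} (hy : y ≠ 0) (hz : z ∉ (F ∙ y))
    (h : (F ∙ z) ∈ Om F G y) {B : Set (Submodule F K)}
    (hB' : ∀ x ∈ XX F G y z, ∀ g : G, σ • g • (F ∙ y) = g • (F ∙ y) → g • x = s • g • (F ∙ y) →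
      g • (F ∙ y) ∈ B) : (XX F G y z).ncard ≤ B.ncard * Sing.mu F G y z := by
  have hX : ∀ x ∈ XX F G y z, ∃ w, x = (F ∙ w) ∧ w ∉ (F ∙ y) ∧ w ∈ pl F y z ∧ pl F y w = pl F y z := by
    rintro _ ⟨⟨g, -, rfl⟩, h1, h2⟩
    rw [smul_pt] at h1 h2 ⊢
    have : g • y ∉ (F ∙ y) := fun c => h2 (pt_eq_of_mem (smul_ne0 hy) c)
    exact ⟨_, rfl, this, pt_le.1 h1, pl_eq_of_mem (left_mem_pl _ _) (pt_le.1 h1) hy this⟩
  have hκ : ∀ w, pl F y w = pl F y z → (orb (ps F G y) (F ∙ w)).ncard = (orb (ps F G y) (pl F y z)).ncard *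
      (orb (ps F G y ⊓ stabilizer G (pl F y z)) (F ∙ w)).ncard := fun w e => by
    rw [← orb_dc, show orb (ps F G y ⊓ stabilizer G (F ∙ w)) (pl F y z) = {pl F y z} from
      Set.eq_singleton_iff_unique_mem.2 ⟨mem_orb_self _ _, by
        rintro _ ⟨g, hg, rfl⟩; exact e ▸ ps_inf_le_pl y w hg⟩, Set.ncard_singleton, mul_one]
  refine g1_wdc (r := fun x p => ∃ g : G, g • (F ∙ y) = p ∧ g • x = s • p)
    (m := fun x => (orb (ps F G y ⊓ stabilizer G (pl F y z)) x).ncard)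
    (fun x hx => ⟨ncard_orb_pos _ _, ?_⟩) fun p _ x hx ⟨g, g1, g2⟩ => Set.ncard_le_ncard ?_
  · obtain ⟨w, rfl, w1, w2, w3⟩ := hX x hx
    have a1 := C.c2 s hs hs' _ (pt_mem_pts hy) _ h
    have a2 := C.c2 s hs hs' _ (pt_mem_pts hy) _ hx.1
    have a3 := D.g1_orb hd (ps F G y) (ne0_of_not_mem hz)
    have a4 := D.g1_orb hd (ps F G y) (ne0_of_not_mem w1)
    have a5 := D.Nn_pos hd C hs hs' hy hz h
    rw [D.Nn_eq hd hs hy] at a1 a2 a5
    rw [hκ z rfl] at a1 a3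
    rw [hκ w w3] at a2 a4
    have := g1_eq a1 a2 a3 a4 (g1_line hy hz inf_le_right (right_mem_pl y z))
      (g1_line hy hz inf_le_right w2) (D.g1_q hd) (D.g1_h hd) D.h13
    refine (Nat.le_mul_of_pos_right _ (Nat.pos_of_mul_pos_left a5)).trans (this.le.trans
      (Nat.mul_le_mul_left _ (Set.ncard_le_ncard ?_)))
    rintro _ ⟨h1, g, rfl, h2⟩
    exact ⟨hB' _ hx g h1 h2, g, rfl, h2⟩
  · rintro x' ⟨hx', g', g3, g4⟩
    obtain ⟨w, rfl, -, -, w3⟩ := hX x hx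
    obtain ⟨w', rfl, -, -, w4⟩ := hX x' hx'
    have e1 : (g'⁻¹ * g) • (F ∙ y) = F ∙ y := by rw [mul_smul, g1, inv_smul_eq_iff, g3]
    have e2 : (g'⁻¹ * g) • (F ∙ w) = F ∙ w' := by rw [mul_smul, g2, inv_smul_eq_iff, g4]
    refine ⟨_, ⟨e1, ?_⟩, e2⟩
    change _ • _ = _
    conv_lhs => rw [← w3, pl, Submodule.smul_sup', e1, e2]
    exact w4

theorem k1 (y z : K) (hy : y ≠ 0) (hz : z ∉ (F ∙ y)) (h : (F ∙ z) ∈ Om F G y) :
    (XX F G y z).ncard ≤ kk F σ y * Sing.mu F G y z ∧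
    ∀ u : K, u ∉ (F ∙ y) → (F ∙ u) ∈ Om F G y → (∀ g ∈ ps F G y, g • u ∉ pl F y z) →
      (XX F G y z).ncard + Sing.mu F G y z ≤ kk F σ y * Sing.mu F G y z := by
  obtain ⟨s, hs, hs'⟩ := D.g1_s hd
  refine ⟨D.g1_rs hd C hs hs' hy hz h fun _ _ g e _ => ⟨⟨g, trivial, rfl⟩, e⟩,
    fun u hu hu' hn => ?_⟩
  have a := D.Nn_pos hd C hs hs' hy hu hu'
  rw [D.Nn_eq hd hs hy] at a
  obtain ⟨p, p1, g, g1, g2⟩ := (Set.ncard_pos (Set.toFinite _)).1 (Nat.pos_of_mul_pos_left a)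
  have := D.g1_rs hd C hs hs' hy hz h (B := {p | p ∈ Om F G y ∧ σ • p = p} \ {p})
    fun x hx g' e e' => ⟨⟨⟨g', trivial, rfl⟩, e⟩, fun c : _ = p => hn (g'⁻¹ * g)
      (by rw [mem_stabilizer_iff, mul_smul, g1, inv_smul_eq_iff, c]) (pt_le.1 (by
        rw [← smul_pt, mul_smul, g2, ← c, ← e', inv_smul_smul]; exact hx.2.1))⟩
  rw [kk, ← Set.ncard_sdiff_singleton_add_one (s := {p | p ∈ Om F G y ∧ σ • p = p})
    ⟨⟨g, trivial, g1⟩, p1⟩, add_mul, one_mul]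
  exact Nat.add_le_add_right this _

theorem k2 (y z : K) (hy : y ≠ 0) (hz : z ∉ (F ∙ y)) : ∃ (g : G) (a b : K), Fr F σ a ∧ Fr F σ b ∧
    b ∉ (F ∙ a) ∧ g • pl F y z = pl F a b := by
  obtain ⟨u, v, t, u0, hv, e, ht, ht', tu⟩ := D.g1_two hd hy hz
  obtain ⟨_, _, ⟨⟨a, a0, rfl⟩, ha⟩, ⟨⟨b, b0, rfl⟩, hb⟩, ab⟩ := (Set.one_lt_ncard_iff (Set.toFinite _)).1
    (D.prime.one_lt.trans_eq (D.ncard_fr hd).symm)
  have fa : Fr F σ a := ⟨a0, ha⟩
  have fb : Fr F σ b := ⟨b0, hb⟩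
  have ba : b ∉ (F ∙ a) := fun c => ab (pt_eq_of_mem b0 c).symm
  obtain ⟨α, -, hα⟩ := mem_ps.1 fa.2
  obtain ⟨β, β0, hβ⟩ := mem_ps.1 fb.2
  have x0 : a + b ≠ 0 := fun c => ba (mem_pt.2 ⟨-1, by rw [neg_one_smul, neg_eq_iff_add_eq_zero, c]⟩)
  have hx : σ • (a + b) ∉ (F ∙ (a + b)) := fun c => by
    obtain ⟨c, hc⟩ := mem_pt.1 c
    rw [smul_add σ, hα, hβ] at hc
    have c1 : c = β := by_contra fun c1 => ba (mem_pt.2 ⟨(c - β)⁻¹ * (α - c), by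
      rw [mul_smul, inv_smul_eq_iff₀ (sub_ne_zero.2 c1)]
      linear_combination (norm := module) -hc⟩)
    rw [c1, smul_add, add_left_inj] at hc
    exact (D.ev a b α β a0 ba hα hβ).ne_one D.prime.one_lt
      (by rw [← smul_left_injective F a0 hc, div_self β0])
  have N0 : ∀ {x : K}, x ≠ 0 → Algebra.norm F x ≠ 0 := fun h => Algebra.norm_ne_zero_iff.2 h
  obtain ⟨s, hs⟩ := (D.mu (σ • (a + b) / (a + b)) (div_ne_zero (smul_ne0 x0) x0)).2 ⟨1, by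
    apply mul_right_cancel₀ (N0 x0)
    rw [← map_mul, div_mul_cancel₀ _ x0, D.norm_fr, one_pow, one_mul]⟩
  have sx : ∀ e, s • (e * (a + b)) = e * σ • (a + b) := fun e => by rw [hs]; field_simp
  have p := g1_one tu
  rw [C.c1 t ht ht' s ⟨_, hs⟩ (fun ⟨c, hc⟩ => hx (mem_pt.2 ⟨c, by simpa [hc] using sx 1⟩)) _
    (pt_mem_pts u0) _ (pt_mem_pts (ne0_of_not_mem hv))] at p
  obtain ⟨_, g, rfl, g2⟩ := (Set.ncard_pos (Set.toFinite _)).1 p
  obtain ⟨f, hf, c, hc⟩ := D.nu_surj hd _ (div_ne_zero (N0 (smul_ne0 (g := g) u0)) (N0 x0))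
  obtain ⟨t', t1, t2⟩ := (D.mem_orb_S (smul_ne0 (g := g) u0) (mul_ne_zero hf.1 x0)).2
    ⟨c, by rw [map_mul, hc, mul_assoc, div_mul_cancel₀ _ (N0 x0)]⟩
  have k : ∀ {a b : K}, b ∉ (F ∙ a) → f * b ∉ (F ∙ (f * a)) := fun h c => by
    obtain ⟨c, hc⟩ := mem_pt.1 c
    exact h (mem_pt.2 ⟨c, mul_left_cancel₀ hf.1 (by rw [← hc, mul_smul_comm])⟩)
  refine ⟨t' * g, f * a, f * b, D.Fr_mul hf fa, D.Fr_mul hf fb, k ba, ?_⟩
  rw [← e, pl, Submodule.smul_sup', mul_smul, mul_smul, g2, smul_pt g, g1_comm t1 ⟨_, hs⟩, t2, smul_pt, sx]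
  refine pl_eq_of_mem (mem_pl.2 ⟨1, 1, by simp [mul_add]⟩) (mem_pl.2 ⟨α, β, ?_⟩) (mul_ne_zero hf.1 x0) (k hx)
  rw [smul_add, hα, hβ, mul_add, mul_smul_comm, mul_smul_comm]

theorem k3 (y z : K) (hy : y ≠ 0) (hz : z ∉ (F ∙ y)) (h : (F ∙ z) ∈ Om F G y) :
    geo (Nat.card F) (n - 1) < (orb (ps F G y) (F ∙ z)).ncard := by
  obtain ⟨s, hs, hs'⟩ := D.g1_s hd
  have a1 := D.g1_le hd hs hy (D.Nn_pos hd C hs hs' hy hz h)
  have a2 := C.c2 s hs hs' _ (pt_mem_pts hy) _ h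
  have a3 := D.mul_ncard_class hd (one_ne_zero (α := K))
  have hq := D.g1_q hd
  obtain ⟨k, rfl⟩ := Nat.exists_eq_add_of_le' D.h13
  have a4 := (Nat.pow_le_pow_right (by omega) (show 9 ≤ k + 9 by omega)).trans
    (g1_geo (Nat.card F) (k + 9))
  rw [geo_succ] at a3
  by_contra! c
  change _ ≤ geo _ (k + 10) at c
  change _ ≤ geo _ (k + 10) at a4
  unfold ps at c
  generalize (orb (stabilizer G (F ∙ y)) (F ∙ z)).ncard = κ at *
  generalize (orb (sS K G) (F ∙ (1 : K))).ncard = h at *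
  generalize Nn s (F ∙ y) (F ∙ z) = N at *
  generalize geo (Nat.card F) (k + 10) = Φ at *
  generalize Nat.card F = q at *
  have b : 2 * (k + 11) ^ 5 ≤ Φ := calc
    _ ≤ q ^ 4 * q ^ 5 := Nat.mul_le_mul
      (le_trans (by norm_num) (Nat.pow_le_pow_left (show 2 ≤ q by omega) 4)) (Nat.pow_le_pow_left hq.le 5)
    _ ≤ Φ := by rwa [← pow_add]
  generalize k + 11 = n at *
  zify at a1 a3 b c hq
  have Φ0 : (0 : ℤ) ≤ Φ := by positivity
  have n0 : (0 : ℤ) ≤ n := by positivity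
  have b1 : (Φ : ℤ) < n * (N - κ) := by
    nlinarith [mul_le_mul_of_nonneg_left a1 n0, mul_le_mul_of_nonneg_left c n0,
      mul_le_mul_of_nonneg_right (show (n : ℤ) + 1 ≤ q by omega) Φ0]
  have b2 := mul_self_lt_mul_self Φ0 b1
  have b3 := mul_le_mul_of_nonneg_left a2 (sq_nonneg (n : ℤ))
  have b4 := mul_le_mul_of_nonneg_left c (show (0 : ℤ) ≤ 2 * n ^ 5 by positivity)
  nlinarith [mul_le_mul_of_nonneg_right b Φ0]

theorem gh : GH σ n (fun x : K => Algebra.norm F x) where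
  prime := D.prime
  h13 := D.h13
  dvd := hd
  cV := D.cK
  fr := D.ncard_fr hd
  ev := D.ev
  nu_ne := fun _ hx => Algebra.norm_ne_zero_iff.2 hx
  nu_smul := D.norm_smul
  nu_sim := fun _ _ c hx hy e => orb_mono le_top _ ((D.mem_orb_S hx hy).2 ⟨c, e⟩)
  nu_add := D.nu_add
  nu_surj := D.nu_surj hd
  nu_inj := D.nu_inj
  k1 := fun y z hy hz h => (D.k1 hd C y z hy hz h).1
  k1' := fun y z u hy hz h => (D.k1 hd C y z hy hz h).2 u
  k2 := D.k2 hd C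
  k3 := D.k3 hd C

end Sg

end Cfsg.Agent.Sing.E11
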