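import Cfsg.Agent.Sing.KDef

/-!
# Overgroups of the Singer normaliser, `n ≥ 11`: the two hypotheses
-/

set_option autoImplicit false
set_option linter.unusedSectionVars false

namespace Cfsg.Agent.Sing.E11

open MulAction Pointwise Cfsg.Agent.Proj.CK

section Geo

variable {F G V : Type*} [Field F] [Group G] [AddCommGroup V] [Module F V] [DistribMulAction G V]
  [SMulCommClass G F V]

/-- the geometric situation when `n ∣ q - 1` (`ν` is the norm) -/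
structure GH (σ : G) (n : ℕ) (ν : V → F) : Prop where
  prime : n.Prime
  h13 : 11 ≤ n
  dvd : n ∣ Nat.card F - 1
  cV : Nat.card V = Nat.card F ^ n
  fr : {p | p ∈ pts F V ∧ σ • p = p}.ncard = n
  ev : ∀ (a b : V) (α β : F), a ≠ 0 → b ∉ (F ∙ a) → σ • a = α • a → σ • b = β • b →
    IsPrimitiveRoot (α / β) n
  nu_ne : ∀ x, x ≠ 0 → ν x ≠ 0
  nu_smul : ∀ (c : F) x, ν (c • x) = c ^ n * ν x
  nu_sim : ∀ x y (c : F), x ≠ 0 → y ≠ 0 → ν y = c ^ n * ν x → (F ∙ y) ∈ Om F G x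
  nu_add : ∀ a b, Fr F σ a → Fr F σ b → b ∉ (F ∙ a) → ν (a + b) = ν a + ν b
  nu_surj : ∀ u : F, u ≠ 0 → ∃ a, Fr F σ a ∧ ∃ c : F, ν a = c ^ n * u
  nu_inj : ∀ a b (c : F), Fr F σ a → Fr F σ b → ν b = c ^ n * ν a → b ∈ (F ∙ a)
  k1 : ∀ y z : V, y ≠ 0 → z ∉ (F ∙ y) → (F ∙ z) ∈ Om F G y →
    (XX F G y z).ncard ≤ kk F σ y * mu F G y z
  k1' : ∀ y z u : V, y ≠ 0 → z ∉ (F ∙ y) → (F ∙ z) ∈ Om F G y → u ∉ (F ∙ y) → (F ∙ u) ∈ Om F G y →
    (∀ g ∈ ps F G y, g • u ∉ pl F y z) →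
    (XX F G y z).ncard + mu F G y z ≤ kk F σ y * mu F G y z
  k2 : ∀ y z : V, y ≠ 0 → z ∉ (F ∙ y) → ∃ (g : G) (a b : V), Fr F σ a ∧ Fr F σ b ∧ b ∉ (F ∙ a) ∧
    g • pl F y z = pl F a b
  k3 : ∀ y z : V, y ≠ 0 → z ∉ (F ∙ y) → (F ∙ z) ∈ Om F G y →
    geo (Nat.card F) (n - 1) < (orb (ps F G y) (F ∙ z)).ncard

end Geo

section Fld

variable (F K G : Type*) [Field F] [Field K] [Algebra F K] [Group G] [DistribMulAction G K]

variable {G} in
/-- `G` acts faithfully on `K`, contains the Frobenius `σ`, and exactly the multiplications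
whose norm is an `n`-th power -/
structure Sg (σ : G) (n : ℕ) : Prop where
  rank : Module.finrank F K = n
  prime : n.Prime
  h13 : 11 ≤ n
  faith : ∀ g : G, (∀ x : K, g • x = x) → g = 1
  fr : ∀ x : K, σ • x = x ^ Nat.card F
  mu : ∀ k : K, k ≠ 0 →
    ((∃ g : G, ∀ x : K, g • x = k * x) ↔ ∃ c : F, Algebra.norm F k = c ^ n)

end Fld

end Cfsg.Agent.Sing.E11
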